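import Mathlib
import Cfsg.Agent.Lib.Helper56.TC
import Cfsg.Agent.Lib.Helper19.J1A.D
set_option autoImplicit false
set_option maxRecDepth 1000000

namespace Cfsg.Agent.Lib.Helper19.J1A

open Cfsg.Agent.Lib.Helper56.TC Cfsg.Agent.Lib.Helper56.TC.Tabs

theorem cN_0 : allRange (fun x => forceN T.chkName x) 0 596 = true := by decide +kernel
theorem cN_596 : allRange (fun x => forceN T.chkName x) 596 609 = true := by decide +kernel
theorem cN_1205 : allRange (fun x => forceN T.chkName x) 1205 609 = true := by decide +kernel
theorem cN_1814 : allRange (fun x => forceN T.chkName x) 1814 585 = true := by decide +kernel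
theorem cN_2399 : allRange (fun x => forceN T.chkName x) 2399 609 = true := by decide +kernel
theorem cN_3008 : allRange (fun x => forceN T.chkName x) 3008 574 = true := by decide +kernel
theorem cN_3582 : allRange (fun x => forceN T.chkName x) 3582 661 = true := by decide +kernel
theorem cN_4243 : allRange (fun x => forceN T.chkName x) 4243 543 = true := by decide +kernel

end Cfsg.Agent.Lib.Helper19.J1A
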