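import Mathlib
import Cfsg.Agent.Lib.Helper56.TC
import Cfsg.Agent.Lib.Helper19.J1A.D
set_option autoImplicit false
set_option maxRecDepth 1000000

namespace Cfsg.Agent.Lib.Helper19.J1A

open Cfsg.Agent.Lib.Helper56.TC Cfsg.Agent.Lib.Helper56.TC.Tabs

theorem cN_4786 : allRange (fun x => forceN T.chkName x) 4786 551 = true := by decide +kernel
theorem cN_5337 : allRange (fun x => forceN T.chkName x) 5337 592 = true := by decide +kernel
theorem cN_5929 : allRange (fun x => forceN T.chkName x) 5929 589 = true := by decide +kernel
theorem cN_6518 : allRange (fun x => forceN T.chkName x) 6518 543 = true := by decide +kernel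
theorem cN_7061 : allRange (fun x => forceN T.chkName x) 7061 547 = true := by decide +kernel
theorem cN_7608 : allRange (fun x => forceN T.chkName x) 7608 548 = true := by decide +kernel
theorem cN_8156 : allRange (fun x => forceN T.chkName x) 8156 610 = true := by decide +kernel
theorem cN_8766 : allRange (fun x => forceN T.chkName x) 8766 650 = true := by decide +kernel

end Cfsg.Agent.Lib.Helper19.J1A
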