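import Mathlib
import Cfsg.Agent.Lib.Helper56.TC
import Cfsg.Agent.Lib.Helper19.J1A.D
set_option autoImplicit false
set_option maxRecDepth 1000000

namespace Cfsg.Agent.Lib.Helper19.J1A

open Cfsg.Agent.Lib.Helper56.TC Cfsg.Agent.Lib.Helper56.TC.Tabs

theorem cN_9416 : allRange (fun x => forceN T.chkName x) 9416 590 = true := by decide +kernel
theorem cN_10006 : allRange (fun x => forceN T.chkName x) 10006 541 = true := by decide +kernel
theorem cN_10547 : allRange (fun x => forceN T.chkName x) 10547 540 = true := by decide +kernel
theorem cN_11087 : allRange (fun x => forceN T.chkName x) 11087 529 = true := by decide +kernel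
theorem cN_11616 : allRange (fun x => forceN T.chkName x) 11616 540 = true := by decide +kernel
theorem cN_12156 : allRange (fun x => forceN T.chkName x) 12156 558 = true := by decide +kernel
theorem cN_12714 : allRange (fun x => forceN T.chkName x) 12714 562 = true := by decide +kernel
theorem cN_13276 : allRange (fun x => forceN T.chkName x) 13276 606 = true := by decide +kernel

end Cfsg.Agent.Lib.Helper19.J1A
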