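import Mathlib
import Cfsg.Agent.Lib.Helper56.TC
import Cfsg.Agent.Lib.Helper19.J1A.D
set_option autoImplicit false
set_option maxRecDepth 1000000

namespace Cfsg.Agent.Lib.Helper19.J1A

open Cfsg.Agent.Lib.Helper56.TC Cfsg.Agent.Lib.Helper56.TC.Tabs

theorem cN_13882 : allRange (fun x => forceN T.chkName x) 13882 503 = true := by decide +kernel
theorem cN_14385 : allRange (fun x => forceN T.chkName x) 14385 463 = true := by decide +kernel
theorem cN_14848 : allRange (fun x => forceN T.chkName x) 14848 441 = true := by decide +kernel
theorem cN_15289 : allRange (fun x => forceN T.chkName x) 15289 455 = true := by decide +kernel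
theorem cN_15744 : allRange (fun x => forceN T.chkName x) 15744 493 = true := by decide +kernel
theorem cN_16237 : allRange (fun x => forceN T.chkName x) 16237 471 = true := by decide +kernel
theorem cN_16708 : allRange (fun x => forceN T.chkName x) 16708 455 = true := by decide +kernel
theorem cN_17163 : allRange (fun x => forceN T.chkName x) 17163 515 = true := by decide +kernel

end Cfsg.Agent.Lib.Helper19.J1A
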