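import Mathlib
import Cfsg.Agent.Lib.Helper56.TC
import Cfsg.Agent.Lib.Helper19.J1A.D
set_option autoImplicit false
set_option maxRecDepth 1000000

namespace Cfsg.Agent.Lib.Helper19.J1A

open Cfsg.Agent.Lib.Helper56.TC Cfsg.Agent.Lib.Helper56.TC.Tabs

theorem cN_17678 : allRange (fun x => forceN T.chkName x) 17678 453 = true := by decide +kernel
theorem cN_18131 : allRange (fun x => forceN T.chkName x) 18131 387 = true := by decide +kernel
theorem cN_18518 : allRange (fun x => forceN T.chkName x) 18518 364 = true := by decide +kernel
theorem cN_18882 : allRange (fun x => forceN T.chkName x) 18882 407 = true := by decide +kernel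
theorem cN_19289 : allRange (fun x => forceN T.chkName x) 19289 432 = true := by decide +kernel
theorem cN_19721 : allRange (fun x => forceN T.chkName x) 19721 431 = true := by decide +kernel
theorem cN_20152 : allRange (fun x => forceN T.chkName x) 20152 355 = true := by decide +kernel
theorem cN_20507 : allRange (fun x => forceN T.chkName x) 20507 297 = true := by decide +kernel

end Cfsg.Agent.Lib.Helper19.J1A
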