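import Mathlib
import Cfsg.Agent.Lib.Helper56.TC
import Cfsg.Agent.Lib.Helper19.J1A.D
set_option autoImplicit false
set_option maxRecDepth 1000000

namespace Cfsg.Agent.Lib.Helper19.J1A

open Cfsg.Agent.Lib.Helper56.TC Cfsg.Agent.Lib.Helper56.TC.Tabs

theorem cN_20804 : allRange (fun x => forceN T.chkName x) 20804 292 = true := by decide +kernel
theorem cN_21096 : allRange (fun x => forceN T.chkName x) 21096 412 = true := by decide +kernel
theorem cN_21508 : allRange (fun x => forceN T.chkName x) 21508 365 = true := by decide +kernel
theorem cN_21873 : allRange (fun x => forceN T.chkName x) 21873 328 = true := by decide +kernel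
theorem cN_22201 : allRange (fun x => forceN T.chkName x) 22201 368 = true := by decide +kernel
theorem cN_22569 : allRange (fun x => forceN T.chkName x) 22569 470 = true := by decide +kernel
theorem cN_23039 : allRange (fun x => forceN T.chkName x) 23039 280 = true := by decide +kernel
theorem cN_23319 : allRange (fun x => forceN T.chkName x) 23319 235 = true := by decide +kernel

end Cfsg.Agent.Lib.Helper19.J1A
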