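import Mathlib
import Cfsg.Agent.Lib.Helper56.TC
import Cfsg.Agent.Lib.Helper19.J1A.D
set_option autoImplicit false
set_option maxRecDepth 1000000

namespace Cfsg.Agent.Lib.Helper19.J1A

open Cfsg.Agent.Lib.Helper56.TC Cfsg.Agent.Lib.Helper56.TC.Tabs

theorem cN_23554 : allRange (fun x => forceN T.chkName x) 23554 307 = true := by decide +kernel
theorem cN_23861 : allRange (fun x => forceN T.chkName x) 23861 293 = true := by decide +kernel
theorem cN_24154 : allRange (fun x => forceN T.chkName x) 24154 298 = true := by decide +kernel
theorem cN_24452 : allRange (fun x => forceN T.chkName x) 24452 308 = true := by decide +kernel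
theorem cN_24760 : allRange (fun x => forceN T.chkName x) 24760 232 = true := by decide +kernel
theorem cN_24992 : allRange (fun x => forceN T.chkName x) 24992 404 = true := by decide +kernel
theorem cN_25396 : allRange (fun x => forceN T.chkName x) 25396 353 = true := by decide +kernel
theorem cN_25749 : allRange (fun x => forceN T.chkName x) 25749 243 = true := by decide +kernel

end Cfsg.Agent.Lib.Helper19.J1A
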