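import Mathlib
import Cfsg.Agent.Lib.Helper56.TC
import Cfsg.Agent.Lib.Helper19.J1A.D
set_option autoImplicit false
set_option maxRecDepth 1000000

namespace Cfsg.Agent.Lib.Helper19.J1A

open Cfsg.Agent.Lib.Helper56.TC Cfsg.Agent.Lib.Helper56.TC.Tabs

theorem cN_25992 : allRange (fun x => forceN T.chkName x) 25992 142 = true := by decide +kernel
theorem cF_0 : allRange (fun x => forceN T.chkFinName x) 0 1071 = true := by decide +kernel
theorem cF_1071 : allRange (fun x => forceN T.chkFinName x) 1071 1071 = true := by decide +kernel
theorem cF_2142 : allRange (fun x => forceN T.chkFinName x) 2142 1071 = true := by decide +kernel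
theorem cF_3213 : allRange (fun x => forceN T.chkFinName x) 3213 1071 = true := by decide +kernel
theorem cF_4284 : allRange (fun x => forceN T.chkFinName x) 4284 1071 = true := by decide +kernel
theorem cF_5355 : allRange (fun x => forceN T.chkFinName x) 5355 1071 = true := by decide +kernel
theorem cF_6426 : allRange (fun x => forceN T.chkFinName x) 6426 1071 = true := by decide +kernel

end Cfsg.Agent.Lib.Helper19.J1A
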