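import Mathlib
import Cfsg.Agent.Lib.Helper56.TC
import Cfsg.Agent.Lib.Helper19.J1A.D
set_option autoImplicit false
set_option maxRecDepth 1000000

namespace Cfsg.Agent.Lib.Helper19.J1A

open Cfsg.Agent.Lib.Helper56.TC Cfsg.Agent.Lib.Helper56.TC.Tabs

theorem cF_7497 : allRange (fun x => forceN T.chkFinName x) 7497 1071 = true := by decide +kernel
theorem cF_8568 : allRange (fun x => forceN T.chkFinName x) 8568 1071 = true := by decide +kernel
theorem cF_9639 : allRange (fun x => forceN T.chkFinName x) 9639 1071 = true := by decide +kernel
theorem cF_10710 : allRange (fun x => forceN T.chkFinName x) 10710 1071 = true := by decide +kernel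
theorem cF_11781 : allRange (fun x => forceN T.chkFinName x) 11781 1071 = true := by decide +kernel
theorem cF_12852 : allRange (fun x => forceN T.chkFinName x) 12852 1071 = true := by decide +kernel
theorem cF_13923 : allRange (fun x => forceN T.chkFinName x) 13923 1071 = true := by decide +kernel
theorem cF_14994 : allRange (fun x => forceN T.chkFinName x) 14994 1071 = true := by decide +kernel

end Cfsg.Agent.Lib.Helper19.J1A
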