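import Mathlib
import Cfsg.Agent.Lib.Helper56.TC
import Cfsg.Agent.Lib.Helper19.J1A.D
set_option autoImplicit false
set_option maxRecDepth 1000000

namespace Cfsg.Agent.Lib.Helper19.J1A

open Cfsg.Agent.Lib.Helper56.TC Cfsg.Agent.Lib.Helper56.TC.Tabs

theorem cF_16065 : allRange (fun x => forceN T.chkFinName x) 16065 1071 = true := by decide +kernel
theorem cF_17136 : allRange (fun x => forceN T.chkFinName x) 17136 1071 = true := by decide +kernel
theorem cF_18207 : allRange (fun x => forceN T.chkFinName x) 18207 1071 = true := by decide +kernel
theorem cF_19278 : allRange (fun x => forceN T.chkFinName x) 19278 1071 = true := by decide +kernel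
theorem cF_20349 : allRange (fun x => forceN T.chkFinName x) 20349 1071 = true := by decide +kernel
theorem cF_21420 : allRange (fun x => forceN T.chkFinName x) 21420 1071 = true := by decide +kernel
theorem cF_22491 : allRange (fun x => forceN T.chkFinName x) 22491 1071 = true := by decide +kernel
theorem cF_23562 : allRange (fun x => forceN T.chkFinName x) 23562 1071 = true := by decide +kernel

end Cfsg.Agent.Lib.Helper19.J1A
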